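import Cfsg.Agent.H79.CS.Tor2
import Cfsg.Agent.H286.CS.Count

/-!
# S3677, `lat_plus_even`: linear algebra (helper79)

* `tri2` : `w` commuting with `s` is `1`, `-1`, or has two different irreducible kernels `U`, `U'`;
* `card_of_ker` : in the last case the isometries commuting with `w` form `GL_m(q^k)`;
* `Pr.ev` : an isometry preserving `U` and `U'` has a fixed space of even dimension;
* `HP` : hyperbolic planes.
-/

set_option autoImplicit false
set_option linter.unusedSectionVars false

namespace Cfsg.Agent.H79.CS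

open Module Polynomial
open Cfsg.Agent.H951 (Frm Isom Inv Irr TI Nd fx cm mem_fx mem_cm inv_cm inv_top)

section ker

variable {F V : Type*} [Field F] [Fintype F] [AddCommGroup V] [Module F V] [FiniteDimensional F V]
variable {ε : F} {B : V → V → F} {s w : Module.End F V} {U U' : Submodule F V} {f f' : F[X]}

/-- the kernels of the irreducible polynomials -/
theorem tri2 (hB : Frm (RingHom.id F) ε B) (hnd : Nd B ⊤) (D : Dat B s U U' f f') (hodd : Odd (finrank F U))
    (hw : Isom B w) (hws : Commute w s) :
    w = 1 ∨ w = -1 ∨ ∃ P P' : F[X], Irreducible P ∧ Irreducible P' ∧ LinearMap.ker (aeval w P) = U ∧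
      LinearMap.ker (aeval w P') = U' := by
  have hwU : Inv w U := inv_of_ker hws.symm D.ker
  have hwU' : Inv w U' := inv_of_ker hws.symm D.ker'
  obtain ⟨P, hP, hPU⟩ := exists_kill D.irr hws hwU
  obtain ⟨P', hP', hPU'⟩ := exists_kill D.irr' hws hwU'
  obtain ⟨v', hv', hv'0⟩ := (Submodule.ne_bot_iff _).1 D.irr'.1
  obtain ⟨v, hv, hv0⟩ := (Submodule.ne_bot_iff _).1 D.irr.1
  by_cases hcase : ∀ u ∈ U', aeval w P u = 0
  · rcases tri hB hnd D hodd hw hws with h | h | ⟨P1, hP1, hP1U, m, hm, -⟩
    · exact Or.inl h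
    · exact Or.inr (Or.inl h)
    have hPw : ∀ v, aeval w P v = 0 := by
      intro v
      have h1 : v ∈ U ⊔ U' := by rw [D.pr.compl.sup_eq_top]; trivial
      obtain ⟨a, ha, b, hb, rfl⟩ := Submodule.mem_sup.1 h1
      rw [map_add, hPU a ha, hcase b hb, add_zero]
    obtain ⟨N, hN, hwN⟩ := exists_order hnd hB hw
    have hv1 : aeval w (expand F N P) v' = 0 := by
      apply D.pr.nd _ (hwU'.aeval _ v' hv')
      intro u hu
      have h1 := Cfsg.Agent.H951.adj_aeval hB hw hN hwN P u v'
      rw [Polynomial.map_id] at h1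
      rw [← h1, hPU u hu, hB.zero_left]
    have h1 : P1 ∣ P := kill_of_kill hP1 hv0 (hP1U v hv) (hPU v hv)
    have h2 : P1.natDegree = P.natDegree := natDegree_eq_of_degree_eq
      (degree_eq_degree_of_associated (hP1.associated_of_dvd hP h1))
    have hPodd : Odd P.natDegree := by
      rw [← hm, h2] at hodd
      exact (Nat.odd_mul.1 hodd).1
    have := eq_one_or_neg_one hP hPodd hPw (Nat.succ_pos N) hwN hv'0 (by simpa using hv1)
    tauto
  · right; right
    have hker : LinearMap.ker (aeval w P) = U := ker_eq D.pr.compl D.irr' hws hPU hcase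
    have hcase' : ¬ ∀ u ∈ U, aeval w P' u = 0 := by
      intro h
      apply hcase
      have h1 : P' ∣ P := kill_of_kill hP' hv0 (h v hv) (hPU v hv)
      exact fun u hu => kill_mul h1 (hPU' u hu)
    exact ⟨P, P', hP, hP', hker, ker_eq D.pr.compl.symm D.irr hws hPU' hcase'⟩

/-- the count -/
theorem card_of_ker (hB : Frm (RingHom.id F) ε B) (h : Pr B U U') (hU0 : U ≠ ⊥) {P P' : F[X]} (hP : Irreducible P)
    (hw : Isom B w) (hker : LinearMap.ker (aeval w P) = U) (hker' : LinearMap.ker (aeval w P') = U') :
    ∃ m, P.natDegree * m = finrank F U ∧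
      Nat.card {g : V ≃ₗ[F] V // (∀ u v, B (g u) (g v) = B u v) ∧ ∀ v, g (w v) = w (g v)} =
        glc (Nat.card F ^ P.natDegree) m := by
  have hwU : Inv w U := inv_of_ker (Commute.refl w) hker
  have hwU' : Inv w U' := inv_of_ker (Commute.refl w) hker'
  have hPU : ∀ u ∈ U, aeval w P u = 0 := fun u hu => by
    rw [← hker] at hu
    exact LinearMap.mem_ker.1 hu
  have hnt : Nontrivial U := Submodule.nontrivial_iff_ne_bot.2 hU0
  have hmin : P * C P.leadingCoeff⁻¹ = minpoly F (w.restrict hwU) := by
    apply minpoly.eq_of_irreducible hP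
    ext u
    have h1 : ∀ Q : F[X], ((aeval (w.restrict hwU) Q u : U) : V) = aeval w Q u := by
      intro Q
      induction Q using Polynomial.induction_on' with
      | add p q hp hq => rw [map_add, map_add, LinearMap.add_apply, LinearMap.add_apply, Submodule.coe_add, hp, hq]
      | monomial n a =>
        rw [aeval_monomial, aeval_monomial, Module.End.mul_apply, Module.End.mul_apply, Module.algebraMap_end_apply,
          Module.algebraMap_end_apply, Submodule.coe_smul, restrict_pow_apply]
    rw [h1, hPU u u.2]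
    rfl
  have hlc : P.leadingCoeff⁻¹ ≠ 0 := inv_ne_zero (leadingCoeff_ne_zero.2 hP.ne_zero)
  have hirr : Irreducible (minpoly F (w.restrict hwU)) := by
    rw [← hmin]
    exact (irreducible_mul_isUnit (Polynomial.isUnit_C.2 (isUnit_iff_ne_zero.2 hlc))).2 hP
  have hdeg : (minpoly F (w.restrict hwU)).natDegree = P.natDegree := by
    rw [← hmin, natDegree_mul_C hlc]
  obtain ⟨m, hm, hcard⟩ := card_comm hirr
  rw [hdeg] at hm hcard
  refine ⟨m, hm, ?_⟩
  rw [← hcard]
  apply h.card_comm hB hw hwU hwU'
  · intro g _ hg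
    exact inv_of_ker (LinearMap.ext fun v => (hg v).symm) hker
  · intro g _ hg
    exact inv_of_ker (LinearMap.ext fun v => (hg v).symm) hker'

end ker

section ev

variable {F V : Type*} [Field F] [AddCommGroup V] [Module F V] [FiniteDimensional F V]
variable {ε : F} {B : V → V → F} {U U' : Submodule F V}

/-- the fixed spaces on `U` and `U'` have the same dimension -/
theorem Pr.finrank_fix (hB : Frm (RingHom.id F) ε B) (h : Pr B U U') {g : V ≃ₗ[F] V}
    (hg : ∀ u v, B (g u) (g v) = B u v) (hU : Inv (g : Module.End F V) U) (hU' : Inv (g : Module.End F V) U') :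
    finrank F (LinearMap.ker ((g : Module.End F V).restrict hU' - 1)) =
      finrank F (LinearMap.ker ((g : Module.End F V).restrict hU - 1)) := by
  set R := LinearMap.range ((g : Module.End F V).restrict hU - 1) with hR
  have h1 : (LinearMap.ker ((g : Module.End F V).restrict hU' - 1)).map (h.dual hB).toLinearMap = R.dualAnnihilator := by
    ext φ
    rw [Submodule.mem_map, Submodule.mem_dualAnnihilator]
    constructor
    · rintro ⟨u', hu', rfl⟩
      rw [LinearMap.mem_ker, LinearMap.sub_apply, Module.End.one_apply, sub_eq_zero] at hu'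
      have h2 : g (u' : V) = u' := congrArg Subtype.val hu'
      rintro _ ⟨u, rfl⟩
      show B (g u - (u : V)) u' = 0
      rw [hB.sub_left, sub_eq_zero]
      nth_rewrite 1 [← h2]
      exact hg _ _
    · intro hφ
      obtain ⟨u', rfl⟩ := (h.dual hB).surjective φ
      refine ⟨u', ?_, rfl⟩
      rw [LinearMap.mem_ker, LinearMap.sub_apply, Module.End.one_apply, sub_eq_zero]
      apply Subtype.ext
      show g (u' : V) = u'
      rw [← sub_eq_zero]
      apply h.nd _ (U'.sub_mem (hU' u' u'.2) u'.2)
      intro u hu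
      -- `u = g v`
      have hmap : U.map (g : V →ₗ[F] V) = U := Cfsg.Agent.H951.map_eq_of_inv g.injective hU
      rw [← hmap] at hu
      obtain ⟨v, hv, rfl⟩ := hu
      have h2 := hφ _ ⟨⟨v, hv⟩, rfl⟩
      have h3 : B (g v - v) u' = 0 := h2
      rw [hB.sub_left, sub_eq_zero] at h3
      rw [hB.sub_right, sub_eq_zero]
      show B (g v) (g u') = B (g v) u'
      rw [hg, h3]
  have h2 : finrank F (LinearMap.ker ((g : Module.End F V).restrict hU' - 1)) = finrank F R.dualAnnihilator := by
    rw [← h1]
    exact (LinearEquiv.finrank_map_eq (h.dual hB) _).symm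
  have h3 := Subspace.finrank_add_finrank_dualAnnihilator_eq R
  have h4 := LinearMap.finrank_range_add_finrank_ker ((g : Module.End F V).restrict hU - 1)
  rw [← hR] at h4
  omega

/-- **an isometry preserving `U` and `U'` is even** -/
theorem Pr.ev (hB : Frm (RingHom.id F) ε B) (h : Pr B U U') {g : V ≃ₗ[F] V}
    (hg : ∀ u v, B (g u) (g v) = B u v) (hU : Inv (g : Module.End F V) U) (hU' : Inv (g : Module.End F V) U') :
    Cfsg.Agent.H286.CS.ev g := by
  have h1 := h.finrank_fix hB hg hU hU'
  have h2 : Cfsg.Agent.H955.fixS g = (LinearMap.ker ((g : Module.End F V).restrict hU - 1)).map U.subtype ⊔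
      (LinearMap.ker ((g : Module.End F V).restrict hU' - 1)).map U'.subtype := by
    apply le_antisymm
    · intro v hv
      rw [Cfsg.Agent.H955.mem_fixS] at hv
      obtain ⟨a, b, rfl⟩ := h.exists_add v
      rw [map_add] at hv
      have h3 : g a - (a : V) = (b : V) - g b := by
        rw [sub_eq_sub_iff_add_eq_add, hv, add_comm]
      have h4 : g a - (a : V) ∈ U ⊓ U' := by
        refine ⟨U.sub_mem (hU a a.2) a.2, ?_⟩
        rw [SetLike.mem_coe, h3]
        exact U'.sub_mem b.2 (hU' b b.2)
      rw [h.compl.inf_eq_bot, Submodule.mem_bot] at h4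
      have h5 : (b : V) - g b = 0 := by rw [← h3, h4]
      refine Submodule.add_mem_sup ⟨a, ?_, rfl⟩ ⟨b, ?_, rfl⟩
      · rw [SetLike.mem_coe, LinearMap.mem_ker]
        exact Subtype.ext h4
      · rw [SetLike.mem_coe, LinearMap.mem_ker]
        apply Subtype.ext
        show g (b : V) - b = 0
        rw [← neg_sub, h5, neg_zero]
    · refine sup_le ?_ ?_
      · rintro _ ⟨a, ha, rfl⟩
        rw [SetLike.mem_coe, LinearMap.mem_ker] at ha
        rw [Cfsg.Agent.H955.mem_fixS, ← sub_eq_zero]
        exact congrArg Subtype.val ha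
      · rintro _ ⟨a, ha, rfl⟩
        rw [SetLike.mem_coe, LinearMap.mem_ker] at ha
        rw [Cfsg.Agent.H955.mem_fixS, ← sub_eq_zero]
        exact congrArg Subtype.val ha
  have h3 : (LinearMap.ker ((g : Module.End F V).restrict hU - 1)).map U.subtype ⊓
      (LinearMap.ker ((g : Module.End F V).restrict hU' - 1)).map U'.subtype = ⊥ := by
    rw [eq_bot_iff, ← h.compl.inf_eq_bot]
    exact inf_le_inf (Submodule.map_subtype_le _ _) (Submodule.map_subtype_le _ _)
  rw [Cfsg.Agent.H286.CS.ev, h2, Cfsg.Agent.H951.finrank_sup_of_disj h3, Submodule.finrank_map_subtype_eq,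
    Submodule.finrank_map_subtype_eq, h1]
  exact ⟨_, rfl⟩

end ev

end Cfsg.Agent.H79.CS
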